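import Cfsg.Agent.H614.XZ.Stp
import Cfsg.Agent.H45.XL.Defs

/-!
# S4791, S4927, the row `PSL_n(q)`, `2 ≤ w < p`: labels (helper695)

`n = e w + s`; the beads `jx n (tk s e k)`, `k < e`, are the last beads of the `e` runners of the row `(s)`.
`lb w k a` : the bead `k` raised by `e a`; `two` : two beads raised.
-/

set_option autoImplicit false

namespace Cfsg.Agent.H695.XP

open Finset Cfsg.Agent.H614 Cfsg.Agent.H614.XZ Cfsg.Agent.H963.XZ Cfsg.Agent.H45.XL

variable {n p : ℕ}

theorem Dp_iterate (e w : ℕ) (A : (Fin n → ℕ) → ZMod p) : (Dp e)^[w] A = (stp p e ^ w) A := by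
  induction w with
  | zero => rfl
  | succ w ih =>
    rw [Function.iterate_succ_apply', ih, pow_succ']
    funext β
    change _ = stp p e ((stp p e ^ w) A) β
    rw [stp_apply]
    rfl

/-- two beads on different runners -/
theorem stp_two [hp : Fact p.Prime] (h2 : p ≠ 2) {e : ℕ} (he : 0 < e) {κ : Fin n → ℕ} {i0 j0 : Fin n} (hij : i0 ≠ j0)
    (htop : ∀ i, e ≤ κ i → ∃ i', i' ≠ i0 ∧ i' ≠ j0 ∧ κ i' = κ i - e) {V : (Fin n → ℕ) → ZMod p} (hV : Alt V) (N : ℕ) :
    ∀ a b : ℕ, a + b = N → (stp p e ^ N) V (up (up κ i0 (e * a)) j0 (e * b)) = ((N.choose a : ℕ) : ZMod p) * V κ := by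
  induction N with
  | zero =>
    intro a b hab
    obtain ⟨rfl, rfl⟩ : a = 0 ∧ b = 0 := by omega
    rw [Nat.choose_self, Nat.cast_one, one_mul]
    change V _ = V κ
    congr 1
    funext i
    by_cases h1 : i = j0
    · subst h1
      rw [up_self, up_ne _ _ (Ne.symm hij), mul_zero, add_zero]
    · rw [up_ne _ _ h1]
      by_cases h2 : i = i0
      · subst h2
        rw [up_self, mul_zero, add_zero]
      · rw [up_ne _ _ h2]
  | succ N ih =>
    intro a b hab
    have hself : up (up κ i0 (e * a)) j0 (e * b) j0 = κ j0 + e * b := by rw [up_self, up_ne _ _ (Ne.symm hij)]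
    have hi0 : up (up κ i0 (e * a)) j0 (e * b) i0 = κ i0 + e * a := by rw [up_ne _ _ hij, up_self]
    have hoth : ∀ i, i ≠ i0 → i ≠ j0 → up (up κ i0 (e * a)) j0 (e * b) i = κ i := by
      intro i h1 h2
      rw [up_ne _ _ h2, up_ne _ _ h1]
    -- lowering a bead to an occupied position
    have hzero : ∀ i : Fin n, up (up κ i0 (e * a)) j0 (e * b) i = κ i →
        (if e ≤ up (up κ i0 (e * a)) j0 (e * b) i then (stp p e ^ N) V (dn (up (up κ i0 (e * a)) j0 (e * b)) i e) else 0) = 0 := by
      intro i hi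
      split_ifs with h1
      · apply (pow_stp_alt e N hV).eq_zero_of_not_injective (two_zmod h2)
        intro hinj
        rw [hi] at h1
        obtain ⟨i', h3, h4, h5⟩ := htop i h1
        have hne : i' ≠ i := by
          rintro rfl
          omega
        apply hne
        apply hinj
        rw [dn_self, dn_ne _ _ hne, hi, hoth i' h3 h4, h5]
      · rfl
    rw [pow_succ']
    change stp p e ((stp p e ^ N) V) _ = _
    rw [stp_apply, ← Finset.add_sum_erase _ _ (mem_univ i0), ← Finset.add_sum_erase _ _ (Finset.mem_erase.2 ⟨Ne.symm hij, mem_univ j0⟩),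
      Finset.sum_eq_zero (fun i hi => hzero i (hoth i (Finset.mem_erase.1 (Finset.mem_erase.1 hi).2).1 (Finset.mem_erase.1 hi).1)), add_zero]
    have hA : (if e ≤ up (up κ i0 (e * a)) j0 (e * b) i0 then (stp p e ^ N) V (dn (up (up κ i0 (e * a)) j0 (e * b)) i0 e) else 0) =
        (if 1 ≤ a then ((N.choose (a - 1) : ℕ) : ZMod p) * V κ else 0) := by
      by_cases ha : 1 ≤ a
      · obtain ⟨a, rfl⟩ := Nat.exists_eq_add_of_le' ha
        rw [if_pos (by rw [hi0, mul_add]; omega), if_pos ha, Nat.add_sub_cancel, ← ih a b (by omega)]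
        refine congrArg ((stp p e ^ N) V) ?_
        funext i
        by_cases h1 : i = i0
        · subst h1
          rw [dn_self, hi0, up_ne _ _ hij, up_self, mul_add]
          omega
        · rw [dn_ne _ _ h1]
          by_cases h2 : i = j0
          · subst h2
            rw [hself, up_self, up_ne _ _ h1]
          · rw [hoth i h1 h2, up_ne _ _ h2, up_ne _ _ h1]
      · rw [if_neg ha]
        apply hzero
        rw [hi0, show a = 0 by omega, mul_zero, add_zero]
    have hB : (if e ≤ up (up κ i0 (e * a)) j0 (e * b) j0 then (stp p e ^ N) V (dn (up (up κ i0 (e * a)) j0 (e * b)) j0 e) else 0) =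
        (if 1 ≤ b then ((N.choose a : ℕ) : ZMod p) * V κ else 0) := by
      by_cases hb : 1 ≤ b
      · obtain ⟨b, rfl⟩ := Nat.exists_eq_add_of_le' hb
        rw [if_pos (by rw [hself, mul_add]; omega), if_pos hb, ← ih a b (by omega)]
        refine congrArg ((stp p e ^ N) V) ?_
        funext i
        by_cases h1 : i = j0
        · subst h1
          rw [dn_self, hself, up_self, up_ne _ _ (Ne.symm hij), mul_add]
          omega
        · rw [dn_ne _ _ h1]
          by_cases h2 : i = i0
          · subst h2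
            rw [hi0, up_ne _ _ h1, up_self]
          · rw [hoth i h2 h1, up_ne _ _ h1, up_ne _ _ h2]
      · rw [if_neg hb]
        apply hzero
        rw [hself, show b = 0 by omega, mul_zero, add_zero]
    rw [hA, hB]
    rcases Nat.lt_or_ge a 1 with ha | ha
    · obtain rfl : a = 0 := by omega
      rw [if_neg (by omega), if_pos (by omega), Nat.choose_zero_right, Nat.choose_zero_right, zero_add]
    · rw [if_pos ha]
      obtain ⟨a, rfl⟩ := Nat.exists_eq_add_of_le' ha
      rw [Nat.add_sub_cancel]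
      rcases Nat.lt_or_ge b 1 with hb | hb
      · obtain rfl : b = 0 := by omega
        obtain rfl : a = N := by omega
        rw [if_neg (by omega), Nat.choose_self, Nat.choose_self, add_zero]
      · rw [if_pos hb, Nat.choose_succ_succ, Nat.cast_add, add_mul]

/-- the last beads of the runners of the row `(s)` -/
def tk (s e k : ℕ) : ℕ := if s + k = e then e else k

theorem tk_le {s e k : ℕ} (hk : k < e) : tk s e k ≤ e := by
  unfold tk
  split_ifs <;> omega

theorem tk_inj {s e k l : ℕ} (hk : k < e) (hl : l < e) (h : tk s e k = tk s e l) : k = l := by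
  unfold tk at h
  split_ifs at h <;> omega

/-- the positions below the last beads are occupied by other beads -/
theorem top_kp {s e k l : ℕ} (hs : s < e) (hn : e < n) (hk : k < e) (hl : l < e) (h1 : tk s e k < n) (h2 : tk s e l < n) (i : Fin n)
    (hi : e ≤ kp n s i) : ∃ i', i' ≠ jx n (tk s e k) h1 ∧ i' ≠ jx n (tk s e l) h2 ∧ kp n s i' = kp n s i - e := by
  have hi2 := i.2
  have key : ∀ (j k : ℕ), j < n → k < e → (h : tk s e k < n) → (j + e + 1 < n ∨ j + e = s + n - 1) →
      (j ≠ n - 1 - tk s e k) := by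
    intro j k hj hk h hor hjk
    unfold tk at hjk h
    split_ifs at hjk h <;> omega
  by_cases hl' : (i : ℕ) + 1 = n
  · rw [kp_last i hl'] at hi ⊢
    refine ⟨⟨s + i - e, by omega⟩, ?_, ?_, ?_⟩
    · intro h
      exact key (s + i - e) k (by omega) hk h1 (by omega) (congrArg Fin.val h)
    · intro h
      exact key (s + i - e) l (by omega) hl h2 (by omega) (congrArg Fin.val h)
    · rw [kp_lt]
      change s + (i : ℕ) - e + 1 ≠ n
      omega
  · rw [kp_lt i hl'] at hi ⊢
    refine ⟨⟨i - e, by omega⟩, ?_, ?_, ?_⟩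
    · intro h
      exact key (i - e) k (by omega) hk h1 (by omega) (congrArg Fin.val h)
    · intro h
      exact key (i - e) l (by omega) hl h2 (by omega) (congrArg Fin.val h)
    · rw [kp_lt]
      change (i : ℕ) - e + 1 ≠ n
      omega

/-- the labels: the bead `k` raised by `e a`, the bead `l` raised by `e b` -/
def lab (n s e k l a b : ℕ) (h1 : tk s e k < n) (h2 : tk s e l < n) : Fin n → ℕ :=
  up (up (kp n s) (jx n (tk s e k) h1) (e * a)) (jx n (tk s e l) h2) (e * b)

theorem jx_ne {k l : ℕ} (hk : k < n) (hl : l < n) (h : k ≠ l) : jx n k hk ≠ jx n l hl := by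
  intro h'
  have := congrArg Fin.val h'
  rw [jx_val, jx_val] at this
  omega

/-- **the values** -/
theorem Dp_lab [hp : Fact p.Prime] (hp2 : p ≠ 2) {s e k l a b : ℕ} (hs : s < e) (hn : e < n) (hk : k < e) (hl : l < e) (hkl : k ≠ l)
    (h1 : tk s e k < n) (h2 : tk s e l < n) {A : (Fin n → ℕ) → ZMod p} (hA : Tail p n s A) :
    (Dp e)^[a + b] A (lab n s e k l a b h1 h2) = (((a + b).choose a : ℕ) : ZMod p) := by
  rw [Dp_iterate, lab, stp_two hp2 (by omega) (jx_ne h1 h2 fun h => hkl (tk_inj hk hl h)) (top_kp hs hn hk hl h1 h2) hA.alt (a + b) a b rfl,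
    hA.row, mul_one]

theorem sum_lab {s e k l a b : ℕ} (h1 : tk s e k < n) (h2 : tk s e l < n) :
    ∑ i, lab n s e k l a b h1 h2 i = e * (a + b) + s + ∑ i : Fin n, (i : ℕ) := by
  unfold lab
  rw [sum_up, sum_up, sum_kp (by omega)]
  ring

/-- the last beads may be raised freely -/
theorem kp_jx_add {s e k N : ℕ} (hs : s < e) (hk : k < e) (h1 : tk s e k < n) (hN : N = e ∨ 2 * e ≤ N) (hen : 2 * e ≤ n)
    (i : Fin n) : kp n s i ≠ kp n s (jx n (tk s e k) h1) + N := by
  intro he
  have hi2 := i.2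
  unfold kp at he
  rw [jx_val] at he
  unfold tk at he h1
  split_ifs at he h1 <;> omega

/-- one bead -/
def lone (n s e k N : ℕ) (h1 : tk s e k < n) : Fin n → ℕ := bt n s N (tk s e k) h1

theorem lone_eq {s e k l w : ℕ} (h1 : tk s e k < n) (h2 : tk s e l < n) : lone n s e k (e * w) h1 = lab n s e k l w 0 h1 h2 := by
  unfold lone lab bt
  rw [mul_zero]
  funext i
  by_cases h : i = jx n (tk s e l) h2
  · subst h
    rw [up_self, add_zero]
  · rw [up_ne _ _ h]

theorem lone_injective {s e k N : ℕ} (hs : s < e) (hk : k < e) (h1 : tk s e k < n) (hN : N = e ∨ 2 * e ≤ N) (hen : 2 * e ≤ n) :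
    Function.Injective (lone n s e k N h1) := by
  intro a b hab
  unfold lone at hab
  by_cases ha : a = jx n _ h1
  · by_cases hb : b = jx n _ h1
    · rw [ha, hb]
    · rw [ha, bt_self, bt_ne _ _ _ _ _ hb] at hab
      exact absurd hab.symm (kp_jx_add hs hk h1 hN hen b)
  · by_cases hb : b = jx n _ h1
    · rw [hb, bt_self, bt_ne _ _ _ _ _ ha] at hab
      exact absurd hab (kp_jx_add hs hk h1 hN hen a)
    · rw [bt_ne _ _ _ _ _ ha, bt_ne _ _ _ _ _ hb] at hab
      exact kp_injective _ _ hab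

section two

variable {s e N : ℕ} (h1 : tk s e 0 < n) (h2 : tk s e 1 < n)

/-- two beads: `0` raised by `N`, `1` raised by `e` -/
def ltwo (n s e N : ℕ) (h1 : tk s e 0 < n) (h2 : tk s e 1 < n) : Fin n → ℕ :=
  up (up (kp n s) (jx n (tk s e 0) h1) N) (jx n (tk s e 1) h2) e

theorem ltwo_zero (he : 2 ≤ e) : ltwo n s e N h1 h2 (jx n _ h1) = kp n s (jx n _ h1) + N := by
  unfold ltwo
  rw [up_ne _ _ (jx_ne h1 h2 fun h => by have := tk_inj (by omega) (by omega) h; omega), up_self]

theorem ltwo_one (he : 2 ≤ e) : ltwo n s e N h1 h2 (jx n _ h2) = kp n s (jx n _ h2) + e := by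
  unfold ltwo
  rw [up_self, up_ne _ _ (jx_ne h2 h1 fun h => by have := tk_inj (by omega) (by omega) h; omega)]

theorem ltwo_ne {i : Fin n} (hi : i ≠ jx n _ h1) (hi' : i ≠ jx n _ h2) : ltwo n s e N h1 h2 i = kp n s i := by
  unfold ltwo
  rw [up_ne _ _ hi', up_ne _ _ hi]

theorem kp_zero_lt (hs : s < e) (hen : 2 * e ≤ n) (he : 2 ≤ e) : kp n s (jx n _ h2) < kp n s (jx n _ h1) := by
  unfold kp
  rw [jx_val, jx_val]
  unfold tk at h1 h2 ⊢
  split_ifs at h1 h2 ⊢ <;> omega

theorem ltwo_injective (hs : s < e) (he : 2 ≤ e) (hN : N = e ∨ 2 * e ≤ N) (hen : 2 * e ≤ n) :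
    Function.Injective (ltwo n s e N h1 h2) := by
  have h3 := kp_zero_lt h1 h2 hs hen he
  intro a b hab
  by_cases ha : a = jx n _ h1
  · by_cases hb : b = jx n _ h1
    · rw [ha, hb]
    · by_cases hb' : b = jx n _ h2
      · rw [ha, hb', ltwo_zero h1 h2 he, ltwo_one h1 h2 he] at hab
        omega
      · rw [ha, ltwo_zero h1 h2 he, ltwo_ne h1 h2 hb hb'] at hab
        exact absurd hab.symm (kp_jx_add hs (by omega) h1 hN hen b)
  · by_cases ha' : a = jx n _ h2
    · by_cases hb : b = jx n _ h1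
      · rw [hb, ha', ltwo_zero h1 h2 he, ltwo_one h1 h2 he] at hab
        omega
      · by_cases hb' : b = jx n _ h2
        · rw [ha', hb']
        · rw [ha', ltwo_one h1 h2 he, ltwo_ne h1 h2 hb hb'] at hab
          exact absurd hab.symm (kp_jx_add hs (by omega) h2 (Or.inl rfl) hen b)
    · by_cases hb : b = jx n _ h1
      · rw [hb, ltwo_zero h1 h2 he, ltwo_ne h1 h2 ha ha'] at hab
        exact absurd hab (kp_jx_add hs (by omega) h1 hN hen a)
      · by_cases hb' : b = jx n _ h2
        · rw [hb', ltwo_one h1 h2 he, ltwo_ne h1 h2 ha ha'] at hab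
          exact absurd hab (kp_jx_add hs (by omega) h2 (Or.inl rfl) hen a)
        · rw [ltwo_ne h1 h2 ha ha', ltwo_ne h1 h2 hb hb'] at hab
          exact kp_injective _ _ hab

/-- the original positions of the two beads are free -/
theorem not_mem_ltwo (hs : s < e) (he : 2 ≤ e) (hN : N = e ∨ 2 * e ≤ N) (hen : 2 * e ≤ n) {j : Fin n}
    (hj : j = jx n _ h1 ∨ j = jx n _ h2) : kp n s j ∉ Set.range (ltwo n s e N h1 h2) := by
  rintro ⟨i, hi⟩
  by_cases ha : i = jx n _ h1
  · rw [ha, ltwo_zero h1 h2 he] at hi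
    exact kp_jx_add hs (by omega) h1 hN hen j hi.symm
  · by_cases ha' : i = jx n _ h2
    · rw [ha', ltwo_one h1 h2 he] at hi
      exact kp_jx_add hs (by omega) h2 (Or.inl rfl) hen j hi.symm
    · rw [ltwo_ne h1 h2 ha ha'] at hi
      have := kp_injective _ _ hi
      rcases hj with hj | hj
      · exact ha (this.trans hj)
      · exact ha' (this.trans hj)

theorem range_lone_ne_ltwo (hs : s < e) (he : 2 ≤ e) (hN : N = e ∨ 2 * e ≤ N) (hen : 2 * e ≤ n) {k N' : ℕ} (hk : k < e)
    (h3 : tk s e k < n) : Set.range (lone n s e k N' h3) ≠ Set.range (ltwo n s e N h1 h2) := by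
  intro h
  obtain ⟨j, hj, hjk⟩ : ∃ j, (j = jx n _ h1 ∨ j = jx n _ h2) ∧ j ≠ jx n _ h3 := by
    by_cases h0 : k = 0
    · subst h0
      exact ⟨jx n _ h2, Or.inr rfl, jx_ne h2 h3 fun h => by have := tk_inj (by omega) (by omega) h; omega⟩
    · exact ⟨jx n _ h1, Or.inl rfl, jx_ne h1 h3 fun h => h0 (tk_inj (by omega) (by omega) h).symm⟩
  apply not_mem_ltwo h1 h2 hs he hN hen hj
  rw [← h]
  exact ⟨j, bt_ne _ _ _ _ _ hjk⟩

end two

/-- **the labels of the small case** -/
theorem exists_labels [hp : Fact p.Prime] (hp2 : p ≠ 2) {e w s : ℕ} (hs : s < e) (he : 2 ≤ e) (hw : 2 ≤ w) (hwp : w < p)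
    (hn : n = e * w + s) : ∃ (β : Fin (e + 1) → Fin n → ℕ) (c : Fin (e + 1) → ℤ), (∀ k, Function.Injective (β k)) ∧
      (∀ k, ∑ i, β k i = n + ∑ i : Fin n, (i : ℕ)) ∧ (∀ k l, k ≠ l → Set.range (β k) ≠ Set.range (β l)) ∧
      (∀ k, ¬ (p : ℤ) ∣ c k) ∧ ∀ k A, Tail p n s A → (Dp e)^[w] A (β k) = (c k : ZMod p) := by
  have hw2 : 2 * e ≤ e * w := by
    rw [mul_comm 2 e]
    exact Nat.mul_le_mul_left e hw
  have hen : 2 * e ≤ n := by omega
  have htk : ∀ k, k < e → tk s e k < n := fun k hk => by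
    have := tk_le (s := s) hk
    omega
  have hN : e * (w - 1) = e ∨ 2 * e ≤ e * (w - 1) := by
    rcases Nat.eq_or_lt_of_le hw with h | h
    · left
      rw [← h]
      ring
    · right
      rw [mul_comm 2 e]
      exact Nat.mul_le_mul_left e (by omega)
  have hN' : e * w = e ∨ 2 * e ≤ e * w := Or.inr hw2
  let β : Fin (e + 1) → Fin n → ℕ := fun k =>
    if h : (k : ℕ) < e then lone n s e k (e * w) (htk k h) else ltwo n s e (e * (w - 1)) (htk 0 (by omega)) (htk 1 (by omega))
  have hβ1 : ∀ (k : Fin (e + 1)) (h : (k : ℕ) < e), β k = lone n s e k (e * w) (htk k h) := fun k h => dif_pos h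
  have hβ2 : ∀ (k : Fin (e + 1)) (_ : ¬ (k : ℕ) < e),
      β k = ltwo n s e (e * (w - 1)) (htk 0 (by omega)) (htk 1 (by omega)) := fun k h => dif_neg h
  refine ⟨β, fun k => if (k : ℕ) < e then 1 else w, fun k => ?_, fun k => ?_, fun k l hkl => ?_, fun k => ?_, fun k A hA => ?_⟩
  · by_cases h : (k : ℕ) < e
    · rw [hβ1 k h]
      exact lone_injective hs h _ hN' hen
    · rw [hβ2 k h]
      exact ltwo_injective _ _ hs he hN hen
  · by_cases h : (k : ℕ) < e
    · rw [hβ1 k h, lone, sum_bt]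
      omega
    · rw [hβ2 k h, ltwo, sum_up, sum_up, sum_kp (by omega)]
      obtain ⟨w, rfl⟩ := Nat.exists_eq_add_of_le' (show 1 ≤ w by omega)
      rw [Nat.add_sub_cancel]
      rw [mul_add] at hn
      omega
  · by_cases hk : (k : ℕ) < e
    · by_cases hl : (l : ℕ) < e
      · rw [hβ1 k hk, hβ1 l hl]
        exact range_bt_ne (by omega) _ _ fun h => hkl (Fin.ext (tk_inj hk hl h))
      · rw [hβ1 k hk, hβ2 l hl]
        exact range_lone_ne_ltwo _ _ hs he hN hen hk _
    · by_cases hl : (l : ℕ) < e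
      · rw [hβ2 k hk, hβ1 l hl]
        exact (range_lone_ne_ltwo _ _ hs he hN hen hl _).symm
      · have h1 := k.2
        have h2 := l.2
        exact absurd (Fin.ext (by omega)) hkl
  · change ¬ (p : ℤ) ∣ (if (k : ℕ) < e then (1 : ℤ) else (w : ℤ))
    by_cases h : (k : ℕ) < e
    · rw [if_pos h]
      intro h1
      have := Int.le_of_dvd one_pos h1
      have := hp.out.two_le
      omega
    · rw [if_neg h]
      intro h1
      have := Int.le_of_dvd (by omega) h1
      omega
  · change _ = (((if (k : ℕ) < e then (1 : ℤ) else (w : ℤ)) : ℤ) : ZMod p)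
    by_cases h : (k : ℕ) < e
    · obtain ⟨l, hl, hkl⟩ : ∃ l, l < e ∧ (k : ℕ) ≠ l := by
        by_cases h0 : (k : ℕ) = 0
        · exact ⟨1, by omega, by omega⟩
        · exact ⟨0, by omega, h0⟩
      rw [hβ1 k h, lone_eq _ (htk l hl), if_pos h]
      have h1 := Dp_lab (a := w) (b := 0) hp2 hs (by omega) h hl hkl (htk k h) (htk l hl) hA
      rw [Nat.add_zero] at h1
      rw [h1, Nat.choose_self, Nat.cast_one, Int.cast_one]
    · rw [hβ2 k h, if_neg h]
      have h1 := Dp_lab (a := w - 1) (b := 1) hp2 hs (by omega) (show 0 < e by omega) (show 1 < e by omega) (by omega)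
        (htk 0 (by omega)) (htk 1 (by omega)) hA
      rw [show w - 1 + 1 = w by omega, lab, mul_one] at h1
      have h2 : w.choose (w - 1) = w := by
        rw [Nat.choose_symm_of_eq_add (show w = (w - 1) + 1 by omega), Nat.choose_one_right]
      rw [h2] at h1
      rw [Int.cast_natCast]
      exact h1

end Cfsg.Agent.H695.XP
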